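import Cfsg.Agent.QR.F1
import Cfsg.Agent.H7.FrakM
import Cfsg.Agent.H7.PRed

/-! Offenders and the normal closure of `V` in the case `V ≤ O₂(L)` of the qrc-lemma. -/

namespace Cfsg.QR

open Subgroup Cfsg.H7
open scoped commutatorElement

variable {G : Type*} [Group G] [Finite G]

theorem offender {S U : Subgroup G} (hS : IsPGroup 2 S) (hU : IsElementaryAbelian 2 U) (US : U ≤ S)
    (nU : S ≤ normalizer (U : Set G)) (hJ : ¬ thompsonSubgroupOf 2 S ≤ centralizer (U : Set G)) :
    ∃ A ≤ S, IsElementaryAbelian 2 A ∧ ¬ A ≤ centralizer (U : Set G) ∧ ⁅⁅U, A⁆, A⁆ = ⊥ ∧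
      (U ⊓ centralizer (A : Set G)).relIndex U ≤ (centralizer (U : Set G)).relIndex A := by
  obtain ⟨A₀, h0, n0⟩ := H9.exists_maxEA_not_le hJ
  have UU := ea_le_centralizer hU
  have AA : ⁅A₀, A₀⁆ ≤ centralizer (U : Set G) :=
    commutator_le_of_le_centralizer (ea_le_centralizer h0.ea)
  have hb := h0.best US hU
  have nA := h0.le.trans nU
  set A := A₀ ⊓ centralizer ((⁅U, A₀⁆ : Subgroup G) : Set G) with hA
  refine ⟨A, inf_le_left.trans h0.le, ea_mono h0.ea inf_le_left,
    H9.timmesfeld_not_le UU (ea_isPGroup hU) nA AA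
      (by rw [pResidualOf_eq_bot_of_isPGroup (hS.to_le h0.le)]; exact bot_le) hb n0,
    commutator_eq_bot_iff'.mpr (inf_le_right.trans
      (centralizer_anti (commutator_mono le_rfl inf_le_left))), ?_⟩
  have k := H9.timmesfeld_best UU nA AA hb le_rfl (centralizer (U : Set G) ⊓ A) inf_le_right
  rw [inf_eq_left.mpr (le_centralizer_iff.mp inf_le_left), ← hA,
    ← relIndex_mul_card_inf (centralizer (U : Set G)) A,
    ← relIndex_mul_card_of_le (inf_le_left : U ⊓ centralizer (A : Set G) ≤ U)] at k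
  have p1 : 0 < Nat.card (centralizer (U : Set G) ⊓ A : Subgroup G) *
    Nat.card (U ⊓ centralizer (A : Set G) : Subgroup G) := Nat.mul_pos Nat.card_pos Nat.card_pos
  refine Nat.le_of_mul_le_mul_right (le_of_eq_of_le ?_ (k.trans_eq ?_)) p1 <;> ring

theorem two_le_ri {A B : Subgroup G} (h : ¬ B ≤ A) : 2 ≤ A.relIndex B := by
  have h1 := ri_ne A B
  have h2 : A.relIndex B ≠ 1 := fun e => h (relIndex_eq_one.mp e)
  omega

theorem ri_mono {A U W : Subgroup G} (h : U ≤ W) : A.relIndex U ≤ A.relIndex W :=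
  relIndex_le_of_le_right h (ri_ne _ _)

/-- A subgroup of index two above a proper subgroup of an elementary abelian group. -/
theorem exists_two {Y Z : Subgroup G} (hY : IsElementaryAbelian 2 Y) (h : Z < Y) :
    ∃ D, Z ≤ D ∧ D < Y ∧ D.relIndex Y ≤ 2 := by
  obtain ⟨D, hD, mx⟩ := Set.Finite.exists_le_maximal (Set.toFinite {D : Subgroup G | D < Y}) h
  have lt : D < Y := mx.prop
  obtain ⟨y, hy, ny⟩ := SetLike.exists_of_lt lt
  have n : zpowers y ≤ normalizer (D : Set G) := le_normalizer_of_le_centralizer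
    ((zpowers_le.mpr hy).trans ((ea_le_centralizer hY).trans (centralizer_anti lt.le)))
  have e : zpowers y ⊔ D = Y := by_contra fun k => ny (mx.le_of_ge
    (lt_of_le_of_ne (sup_le (zpowers_le.mpr hy) lt.le) k) le_sup_right
    (mem_sup_left (mem_zpowers y)))
  refine ⟨D, hD, lt, ?_⟩
  rw [← e, relIndex_sup_of_le_normalizer n]
  refine (Nat.le_of_dvd Nat.card_pos (relIndex_dvd_card _ _)).trans ?_
  rw [Nat.card_zpowers]
  exact orderOf_le_of_pow_eq_one two_pos ((isElementaryAbelian_iff.mp hY).2 y hy)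

theorem pair_one {V Y D : Subgroup G} {f : G} (hV : V ≤ centralizer (V : Set G))
    (VD : V ≤ normalizer (D : Set G)) (fD : f ∈ normalizer (D : Set G))
    (fV : f ∈ normalizer (V : Set G)) (hY : ∀ v ∈ V, ⁅v, f⁆ ∈ Y) :
    (stab (zpowers f) D).relIndex V ≤ D.relIndex Y :=
  H9.relIndex_le_of_map (fun x => ⁅x, f⁆) hY fun x hx y hy k => by
    have m1 := mul_mem (inv_mem hx) hy
    have com : ∀ {x y : G}, x ∈ V → y ∈ V → x * y = y * x := fun hx hy => hV hy _ hx
    refine zpowers_le.mp (le_stab_iff.mpr ⟨zpowers_le.mpr (VD m1), ?_⟩)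
    rw [commutator_comm]
    refine H9.commutator_zpowers_le (VD m1) fD ?_
    have k1 : f * x * f⁻¹ ∈ V := (mem_normalizer_iff.mp fV x).mp hx
    convert k using 1
    calc ⁅x⁻¹ * y, f⁆ = x⁻¹ * y * f * (y⁻¹ * x) * f⁻¹ := by rw [commutatorElement_def]; group
      _ = x⁻¹ * y * (f * x * f⁻¹) * (f * y⁻¹ * f⁻¹) := by rw [com (inv_mem hy) hx]; group
      _ = _ := by rw [com m1 k1, commutatorElement_def, commutatorElement_def]; group

theorem pair_le {V F Y D : Subgroup G} (hV : V ≤ centralizer (V : Set G))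
    (VD : V ≤ normalizer (D : Set G)) (FD : F ≤ normalizer (D : Set G))
    (FV : F ≤ normalizer (V : Set G)) (hY : ⁅V, F⁆ ≤ Y) (h2 : D.relIndex Y ≤ 2) :
    (stab F D).relIndex V ≤ (centralizer (V : Set G)).relIndex F := by
  set C := centralizer (V : Set G) ⊓ F with hC
  have key : ∀ F' : Subgroup G, C ≤ F' → F' ≤ F → (stab F' D).relIndex V ≤ C.relIndex F' →
      (stab F D).relIndex V ≤ C.relIndex F := by
    intro F'
    induction F' using WellFoundedGT.induction with
    | ind F' ih =>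
    intro h1 h3 h4
    rcases h3.eq_or_lt with rfl | lt
    · exact h4
    obtain ⟨f, hf, nf⟩ := SetLike.exists_of_lt lt
    have l : ¬ F' ⊔ zpowers f ≤ F' := fun k => nf (k (mem_sup_right (mem_zpowers f)))
    have zF : zpowers f ≤ F := zpowers_le.mpr hf
    refine ih _ (lt_of_le_not_ge le_sup_left l) (h1.trans le_sup_left) (sup_le h3 zF) ?_
    have s : stab F' D ⊓ stab (zpowers f) D ≤ stab (F' ⊔ zpowers f) D :=
      le_stab_iff.mpr ⟨inf_le_left.trans (stab_le_normalizer _ _), sup_commutator_le (h3.trans FD)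
        (zF.trans FD) ((commutator_mono le_rfl inf_le_left).trans (commutator_stab_le _ _))
        ((commutator_mono le_rfl inf_le_right).trans (commutator_stab_le _ _))⟩
    calc _ ≤ (stab F' D ⊓ stab (zpowers f) D).relIndex V := relIndex_le_of_le_left s (ri_ne _ _)
      _ ≤ _ := relIndex_inf_le
      _ ≤ C.relIndex F' * F'.relIndex (F' ⊔ zpowers f) := Nat.mul_le_mul h4
          (((pair_one hV VD (FD hf) (FV hf) fun v hv =>
            hY (commutator_mem_commutator hv hf)).trans h2).trans (two_le_ri l))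
      _ = _ := relIndex_mul_relIndex _ _ _ h1 le_sup_left
  rw [← inf_relIndex_right (centralizer (V : Set G))]
  refine key C le_rfl inf_le_right ?_
  rw [relIndex_self, relIndex_eq_one.mpr (le_stab_iff.mpr ⟨VD, commutator_le_of_le_centralizer
    (le_centralizer_iff.mp inf_le_left)⟩)]

namespace Cf

variable {L S L₀ V : Subgroup G} (h : Cf L S L₀ V)
include h

theorem ES : pCoreOf 2 L ≤ S := h.syl.pCoreOf_le

theorem UE : cl L V ≤ pCoreOf 2 L := cl_le h.le (le_normalizer_pCoreOf 2 L)

theorem cjE {g : G} (hg : g ∈ L) : cj g (pCoreOf 2 L) = pCoreOf 2 L :=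
  cj_eq_of_mem_normalizer (le_normalizer_pCoreOf 2 L hg)

theorem nq' {g : G} (hg : g ∈ L) {B : Subgroup G} (hB : B ≤ pCoreOf 2 L) : ¬ Qd B (cj g V) :=
  fun k => h.nq (cj g⁻¹ B) ((cj_le_of_le (le_normalizer_pCoreOf 2 L (inv_mem hg)) hB).trans h.ES)
    (by simpa only [cj_inv_cj] using k.cj g⁻¹)

theorem nE {g : G} (hg : g ∈ L) : pCoreOf 2 L ≤ normalizer (cj g V : Set G) :=
  (h.cjE hg).ge.trans (cj_le_normalizer_cj g (h.ES.trans h.nS))

theorem eaU : IsElementaryAbelian 2 (cl L V) := by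
  have key : ∀ a ∈ L, ∀ b ∈ L, cj a V ≤ centralizer (cj b V : Set G) := fun a ha b hb => by
    by_contra n
    have aE := (le_cl ha).trans h.UE
    have bE := (le_cl hb).trans h.UE
    rcases le_total ((centralizer (cj a V : Set G)).relIndex (cj b V))
      ((centralizer (cj b V : Set G)).relIndex (cj a V)) with k | k
    · exact h.nq' hb aE (qd_of_swap (ea_cj h.ea a) (aE.trans (h.nE hb)) (bE.trans (h.nE ha)) n k)
    · exact h.nq' ha bE (qd_of_swap (ea_cj h.ea b) (bE.trans (h.nE ha)) (aE.trans (h.nE hb))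
        (fun e => n (le_centralizer_iff.mp e)) k)
  rw [cl, iSup_subtype']
  exact ea_iSup (fun a => ea_cj h.ea _) fun a b => key _ a.2 _ b.2

theorem nX : ¬ pResidualOf 2 L ≤ normalizer (V : Set G) := fun k =>
  h.nL (h.syl.sup_pResidualOf.ge.trans (sup_le h.nS k))

theorem nXc : ¬ pResidualOf 2 L ≤ centralizer (cl L V : Set G) := fun k =>
  h.nX (le_normalizer_of_le_centralizer (k.trans (centralizer_anti (le_cl' L V))))

theorem CE : S ⊓ centralizer (cl L V : Set G) ≤ pCoreOf 2 L := by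
  have n : L ≤ normalizer ((L ⊓ centralizer (cl L V : Set G) : Subgroup G) : Set G) :=
    le_normalizer_inf le_normalizer (le_normalizer_centralizer (n_cl L V))
  have k := (h.um.pResidualOf_le_or_le h.syl.isPGroup inf_le_left n).resolve_left
    fun k => h.nXc (k.trans inf_le_right)
  exact (le_inf inf_le_left (inf_le_inf_right _ h.syl.le)).trans (h.um.inf_le_pCoreOf h.syl k n)

theorem chain (B : Subgroup G) : B ≤ pCoreOf 2 L → ⁅⁅cl L V, B⁆, B⁆ = ⊥ →
    ((centralizer (cl L V : Set G)).relIndex B) ^ 2 ≤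
      (cl L V ⊓ centralizer (B : Set G)).relIndex (cl L V) ∧
    (¬ B ≤ centralizer (cl L V : Set G) → ((centralizer (cl L V : Set G)).relIndex B) ^ 2 <
      (cl L V ⊓ centralizer (B : Set G)).relIndex (cl L V)) := by
  induction B using WellFoundedLT.induction with
  | ind B ih =>
  intro BE q
  by_cases c : B ≤ centralizer (cl L V : Set G)
  · refine ⟨?_, fun k => (k c).elim⟩
    rw [relIndex_eq_one.mpr c]
    exact Nat.pos_of_ne_zero (ri_ne _ _)
  suffices k : _ from ⟨le_of_lt k, fun _ => k⟩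
  obtain ⟨g, hg, ng⟩ : ∃ g ∈ L, ¬ B ≤ centralizer (cj g V : Set G) := by
    by_contra! k
    exact c (le_centralizer_iff.mpr (iSup₂_le fun g hg => le_centralizer_iff.mp (k g hg)))
  have WU : cj g V ≤ cl L V := le_cl hg
  set U := cl L V
  set W := cj g V
  set B1 := centralizer (W : Set G) ⊓ B with hB1
  have k1 : ((centralizer (W : Set G)).relIndex B) ^ 2 < (W ⊓ centralizer (B : Set G)).relIndex W :=
    not_le.mp fun k => h.nq' hg BE ⟨ng, eq_bot_iff.mpr ((commutator_mono
      (commutator_mono WU le_rfl) le_rfl).trans q.le), k⟩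
  have k2 := (ih B1 (lt_of_le_not_ge inf_le_right fun k => ng (k.trans inf_le_left))
    (inf_le_right.trans BE) (eq_bot_iff.mpr ((commutator_mono
      (commutator_mono le_rfl inf_le_right) inf_le_right).trans q.le))).1
  have e1 : (centralizer (U : Set G)).relIndex B =
      (centralizer (U : Set G)).relIndex B1 * (centralizer (W : Set G)).relIndex B := by
    rw [hB1, relIndex_inf_mul_relIndex, inf_eq_left.mpr (centralizer_anti WU)]
  have e2 : (U ⊓ centralizer (B : Set G)).relIndex U =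
      (U ⊓ centralizer (B : Set G)).relIndex (U ⊓ centralizer (B1 : Set G)) *
        (U ⊓ centralizer (B1 : Set G)).relIndex U :=
    (relIndex_mul_relIndex _ _ _ (inf_le_inf_left _ (centralizer_anti inf_le_right))
      inf_le_left).symm
  have k3 : (W ⊓ centralizer (B : Set G)).relIndex W ≤
      (U ⊓ centralizer (B : Set G)).relIndex (U ⊓ centralizer (B1 : Set G)) :=
    (relIndex_le_of_le_left (le_refl _) (ri_ne _ _)).trans (le_of_eq_of_le (by
      rw [← inf_relIndex_right (U ⊓ centralizer (B : Set G)), inf_right_comm, inf_eq_right.mpr WU])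
      (ri_mono (le_inf WU (le_centralizer_iff.mp inf_le_left))))
  rw [e1, e2, mul_pow, mul_comm]
  exact Nat.mul_lt_mul_of_lt_of_le (k1.trans_le k3) k2 (Nat.pos_of_ne_zero (ri_ne _ _))

end Cf

end Cfsg.QR
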