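import Cfsg.Agent.QR.D0

/-! In the configuration `Cf`, `O²(L)` centralises every normal elementary abelian subgroup
centralised by `O₂(L)`. -/

namespace Cfsg.QR

open Subgroup Cfsg.H7 Cfsg.H7.Md
open Cfsg.H8 (up down)
open Cfsg.H9 (MaxEA)

universe u

variable {G : Type u} [Group G] [Finite G] {L S L₀ V W : Subgroup G}

theorem cent_of_fix {p : ℕ} [Fact p.Prime] (hT : IsSylowIn p S L) (hM : UniqMax S L L₀)
    (hJ : ¬ thompsonSubgroupOf p S ≤ pCoreOf p L)
    (hZ : omegaOneCenter p S ≤ centralizer (L : Set G)) (hV : IsElementaryAbelian p W)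
    (hVT : W ≤ S) (hn : L ≤ normalizer (W : Set G)) (hO : pCoreOf p L ≤ centralizer (W : Set G)) :
    pResidualOf p L ≤ centralizer (W : Set G) := by
  by_contra hc
  set C := L ⊓ centralizer (W : Set G) with hC
  have nC : L ≤ normalizer (C : Set G) :=
    le_normalizer_inf le_normalizer (le_normalizer_centralizer hn)
  obtain ⟨Γ, U, _, _, _, _, _, ⟨r⟩⟩ := exists_rep (N := C) (ea_le_centralizer hV) hn nC inf_le_right
  have hCM : C ≤ L₀ := (hM.pResidualOf_le_or_le hT.isPGroup inf_le_left nC).resolve_left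
    fun e => hc (e.trans inf_le_right)
  have hSC : S ⊓ C ≤ pCoreOf p L := hM.inf_le_pCoreOf hT hCM nC
  have hOC : pCoreOf p L ≤ C := le_inf (pCoreOf_le p L) hO
  have ub : up r.π ⊥ = C := by rw [r.up_bot, inf_eq_left.mpr inf_le_left]
  have ud : ∀ X ≤ L, up r.π (down r.π X) = X ⊔ C := fun X hX => by rw [H8.up_down _ hX, ub]
  have hf := r.faithful le_rfl
  have um : UniqMax (down r.π S) ⊤ (down r.π L₀) :=
    ⟨H8.down_mono _ hM.le, lt_top_iff_ne_top.mpr fun e => hM.not_le (by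
        have := ud L₀ hM.lt.le
        rw [e, H8.up_top, sup_eq_left.mpr hCM] at this
        exact this.le), fun X h3 h4 => by
      rw [← H8.up_le_up_iff r.surj, ud _ hT.le] at h3
      rw [← H8.up_le_up_iff r.surj, ud _ hM.lt.le]
      refine (hM.max _ (le_sup_left.trans h3)
        (lt_of_le_of_ne (H8.up_le _ _) fun e => h4.ne ?_)).trans le_sup_left
      rw [← H8.down_up r.surj X, e, H8.down_top r.surj]⟩
  have syl : IsSylowIn p (down r.π S) ⊤ := by
    have := (hT.subgroupOf le_rfl).map r.π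
    rwa [subgroupOf_self, map_top_of_surjective _ r.surj] at this
  have op : pCore p Γ = ⊥ := by
    have hn : L ≤ normalizer (up r.π (pCore p Γ) : Set G) := H8.le_normalizer_up _ _
    have hp : ∀ x ∈ up r.π (pCore p Γ), ∃ k : ℕ, x ^ p ^ k ∈ C := fun x hx => by
      obtain ⟨h1, h2⟩ := H8.mem_up.mp hx
      obtain ⟨k, hk⟩ := isPGroup_iff_mem.mp (isPGroup_pCore p Γ) _ h2
      exact ⟨k, (r.ker (⟨x, h1⟩ ^ p ^ k)).mp (by rw [map_pow, hk])⟩
    have h1 := (hM.pResidualOf_le_or_le hT.isPGroup (H8.up_le _ _) hn).resolve_left fun e =>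
      hM.not_pResidualOf_le hT (by
        rw [← pResidualOf_eq_of_le e (H8.up_le _ _)]
        exact (pResidualOf_le_of_pow_mem hp).trans hCM)
    have h2 := (hT.inf_of_normal (H8.up_le _ _) hn).le_sup_of_pow_mem ((H8.up_le _ _).trans nC) hp
    rw [eq_bot_iff, ← H8.up_le_up_iff r.surj, ub]
    exact h2.trans (sup_le ((hM.inf_le_pCoreOf hT h1 hn).trans hOC) le_rfl)
  obtain ⟨A, hA, hAC⟩ := H9.exists_maxEA_not_le (p := p) (T := S) (K := C) fun e =>
    hJ ((le_inf (H9.J_le _ _) e).trans hSC)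
  have hAP := hA.le.trans hT.le
  have h1 := hA.best hVT hV (C ⊓ A) inf_le_right
  rw [← r.ms_down (X := A) hAP, inf_eq_left.mpr (le_centralizer_iff.mp
    (inf_le_left.trans inf_le_right : C ⊓ A ≤ _)), ← r.card_W, mul_comm] at h1
  refine fix_pmin (r.tor hV) hf syl um op (ea_map (ea_subgroupOf hA.ea _) _)
    (fun e => hAC (ub ▸ (H8.down_eq_bot_iff hAP).mp e)) (Nat.le_of_mul_le_mul_right h1 Nat.card_pos)
    (le_trans ?_ (fx_anti le_top))
  rw [← r.uv_le_uv, r.uv_fx_down hT.le, r.uv_fx, H8.up_top]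
  exact le_inf inf_le_left ((le_omegaOneCenter (inf_le_left.trans hVT) inf_le_right
    fun v hv => hV.2 v hv.1).trans hZ)

theorem Cf.cE (h : Cf L S L₀ V) (hW : IsElementaryAbelian 2 W) (h1 : W ≤ S)
    (h2 : L ≤ normalizer (W : Set G)) (h3 : pCoreOf 2 L ≤ centralizer (W : Set G)) :
    pResidualOf 2 L ≤ centralizer (W : Set G) :=
  cent_of_fix h.syl h.um h.J h.Z hW h1 h2 h3

end Cfsg.QR
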