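import Cfsg.Agent.QR.D0

/-! A `p`-minimal group has no over-offender on a non-central section. -/

namespace Cfsg.QR

open Subgroup Cfsg.H7 Cfsg.H7.Md
open Cfsg.H8 (up down)
open scoped commutatorElement

theorem no_over_irr {Γ V : Type*} [Group Γ] [AddCommGroup V] [DistribMulAction Γ V] [Finite Γ]
    [Finite V] {p : ℕ} [Fact p.Prime] (hV : ∀ v : V, p • v = 0) {T M A : Subgroup Γ}
    (hT : IsSylowIn p T ⊤) (um : UniqMax T ⊤ M)
    (irr : ∀ U : AddSubgroup V, ⊤ ≤ st Γ U → U = ⊥ ∨ U = ⊤)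
    (hC : cz Γ (⊤ : AddSubgroup V) ≤ M) (hA : IsElementaryAbelian p A) :
    Nat.card A * Nat.card (fx V A) ≤
      Nat.card (A ⊓ cz Γ (⊤ : AddSubgroup V) : Subgroup Γ) * Nat.card V := by
  let φ := MulAction.toPermHom Γ V
  let _ : DistribMulAction φ.range V :=
    { (inferInstance : MulAction φ.range V) with
      smul_zero := by rintro ⟨_, g, rfl⟩; exact smul_zero g
      smul_add := by rintro ⟨_, g, rfl⟩ x y; exact smul_add g x y }
  have hs := φ.rangeRestrict_surjective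
  set π := φ.rangeRestrict
  have e : ∀ (g : Γ) (v : V), π g • v = g • v := fun _ _ => rfl
  have hf : cz φ.range (⊤ : AddSubgroup V) = ⊥ := eq_bot_iff.mpr fun g hg =>
    Subtype.ext (Equiv.ext fun v => hg v trivial)
  have hk : π.ker = cz Γ (⊤ : AddSubgroup V) := by
    ext g
    exact ⟨fun h v _ => by rw [← e, MonoidHom.mem_ker.mp h, one_smul],
      fun h => Subtype.ext (Equiv.ext fun v => h v trivial)⟩
  have tp : (⊤ : Subgroup Γ).map π = ⊤ := map_top_of_surjective _ hs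
  have um' : UniqMax (T.map π) ⊤ (M.map π) := tp ▸ um.map π (inf_le_right.trans (hk.le.trans hC))
  have key : ∀ N : Subgroup φ.range, N.Normal → ∀ Q : Subgroup φ.range, IsPGroup p Q →
      fx V Q ≤ fx V N → N = ⊥ := fun N hN Q hQ h => by
    rcases irr (fx V N) (fun g _ => normalizer_le_st_fx N (le_normalizer_of_normal
      (mem_top (π g)))) with h0 | h0
    · by_cases h1 : (⊤ : AddSubgroup V) = ⊥
      · exact eq_bot_iff.mpr (hf ▸ fun g _ v _ =>
          (h1.le (AddSubgroup.mem_top _)).trans (h1.le (AddSubgroup.mem_top v)).symm)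
      · obtain ⟨u, -, u0, hu⟩ := exists_fixed_ne_zero hV hQ (U := ⊤) (by simp) h1
        exact (u0 (h0.le (h hu))).elim
    · exact eq_bot_iff.mpr (hf ▸ le_fx_iff.mp h0.ge)
  have syl : IsSylowIn p (T.map π) ⊤ := tp ▸ hT.map π
  have H : PM p V (T.map π) (M.map π) :=
    { syl := syl
      le := um'.le
      cz := (um'.eq_or_le (le_cz_fx _) le_top).resolve_left fun h =>
        um'.not_le ((key ⊤ inferInstance _ syl.isPGroup (le_fx_iff.mpr h.ge)).le.trans bot_le)
      tor := hV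
      faith := hf
      um := um'
      op := key _ inferInstance _ (isPGroup_pCore p _) le_rfl }
  have h1 := H.fh.max _ (ea_map hA π)
  have h2 : fx V (A.map π) = fx V A := by
    ext v
    exact ⟨fun h a ha => h _ (mem_map_of_mem π ha), by rintro h _ ⟨a, ha, rfl⟩; exact h a ha⟩
  have h3 : Nat.card A = Nat.card (A ⊓ π.ker : Subgroup Γ) * Nat.card (A.map π) := by
    rw [← relIndex_ker, inf_comm, mul_comm, relIndex_mul_card_inf]
  rw [ms, h2] at h1
  rw [h3, hk, mul_assoc]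
  exact Nat.mul_le_mul_left _ h1

universe u

variable {G : Type u} [Group G] [Finite G] {L S L₀ U W A K : Subgroup G}

theorem no_over (hS : IsSylowIn 2 S L) (um : UniqMax S L L₀) (hU : IsElementaryAbelian 2 U)
    (nU : L ≤ normalizer (U : Set G)) (hW : W ≤ U) (nW : L ≤ normalizer (W : Set G))
    (hX : ¬ ⁅U, pResidualOf 2 L⁆ ≤ W) (hA : A ≤ S) (eA : IsElementaryAbelian 2 A)
    (hK : ∀ u ∈ U, u ∈ K ↔ ∀ a ∈ A, ⁅u, a⁆ ∈ W) :
    (pCoreOf 2 L).relIndex A ≤ K.relIndex U := by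
  obtain ⟨W', ⟨w1, w2, w3, w4⟩, hW'⟩ := (wellFounded_gt (α := Subgroup G)).has_min
    {Y | W ≤ Y ∧ Y ≤ U ∧ L ≤ normalizer (Y : Set G) ∧ ¬ ⁅U, pResidualOf 2 L⁆ ≤ Y} ⟨W, le_rfl, hW, nW, hX⟩
  have nX := (pResidualOf_le 2 L).trans nU
  obtain ⟨U', ⟨u1, u2, u3⟩, hU'⟩ := (wellFounded_lt (α := Subgroup G)).has_min
    {Y | W' < Y ∧ Y ≤ U ∧ L ≤ normalizer (Y : Set G)} ⟨U, lt_of_le_of_ne w2 fun e =>
      w4 (e ▸ commutator_le_left_of_le_normalizer (e ▸ nX)), le_rfl, nU⟩
  have u4 : ¬ ⁅U', pResidualOf 2 L⁆ ≤ W' := fun e => w4 (by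
    rw [← commutator_commutator_pResidualOf (ea_isPGroup hU) nX]
    exact (commutator_mono (by_contra fun e' => hW' U' ⟨w1.trans u1.le, u2, u3, e'⟩ u1) le_rfl).trans e)
  have eU := ea_mono hU u2
  obtain ⟨Γ, V, _, _, _, _, _, ⟨r⟩⟩ := exists_rep_bot (ea_le_centralizer eU) u3
  obtain ⟨V', _, _, _, π, q⟩ := exists_quo (Γ := Γ) (Z := r.dv W')
    (H8.down_top r.surj ▸ r.down_le_st u1.le w3)
  have AL := hA.trans hS.le
  have um' : UniqMax (down r.π S) ⊤ (down r.π L₀) :=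
    ⟨H8.down_mono _ um.le, lt_top_iff_ne_top.mpr fun e => um.not_le (by
        have := r.up_down' um.lt.le
        rw [e, H8.up_top] at this
        exact this.le), fun X h3 h4 => by
      rw [← H8.up_le_up_iff r.surj, r.up_down' hS.le] at h3
      rw [← H8.up_le_up_iff r.surj, r.up_down' um.lt.le]
      refine um.max _ h3 (lt_of_le_of_ne (H8.up_le _ _) fun e => h4.ne ?_)
      rw [← H8.down_up r.surj X, e, H8.down_top r.surj]⟩
  have syl : IsSylowIn 2 (down r.π S) ⊤ := by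
    have := (hS.subgroupOf le_rfl).map r.π
    rwa [subgroupOf_self, map_top_of_surjective _ r.surj] at this
  set C := up r.π (cz Γ (⊤ : AddSubgroup V')) with hC
  have nC : L ≤ normalizer (C : Set G) := H8.le_normalizer_up _ _
  have c1 : ∀ l ∈ C, ∀ u ∈ U', ⁅u, l⁆ ∈ W' := fun l hl u hu => by
    obtain ⟨h1, h2⟩ := H8.mem_up.mp hl
    obtain ⟨w, rfl⟩ := r.exists_e hu
    have : r.π ⟨l, h1⟩ • w - w ∈ r.dv W' :=
      (q.ker _).mp (by rw [map_sub, q.smul, h2 _ trivial, sub_self])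
    rw [r.mem_dv, r.e_smul_sub] at this
    simpa using inv_mem this
  have c2 : C ≤ L₀ := (um.pResidualOf_le_or_le hS.isPGroup (H8.up_le _ _) nC).resolve_left
    fun e => u4 (commutator_le.mpr fun u hu l hl => c1 l (e hl) u hu)
  have h1 := no_over_irr (V := V') (A := down r.π A) (q.tor (r.tor eU)) syl um' (fun Y hY => by
      have y1 : W' ≤ r.uv (Y.comap π) := (r.uv_dv u1.le).ge.trans (r.uv_mono fun v hv => by
        rw [AddSubgroup.mem_comap, (q.ker v).mpr hv]; exact zero_mem _)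
      have y2 : L ≤ normalizer (r.uv (Y.comap π) : Set G) :=
        (H8.up_top r.π).ge.trans (r.up_le_normalizer (hY.trans (q.st_le_comap Y)))
      rcases y1.eq_or_lt with e | e
      · refine Or.inl (eq_bot_iff.mpr fun y hy => ?_)
        obtain ⟨v, rfl⟩ := q.surj y
        exact (q.ker v).mpr (r.mem_dv.mpr (e ▸ r.e_mem_uv.mpr hy))
      · have e1 : r.uv (Y.comap π) = U' := by_contra fun e' =>
          hU' _ ⟨e, (r.uv_le _).trans u2, y2⟩ (lt_of_le_of_ne (r.uv_le _) e')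
        refine Or.inr (eq_top_iff.mpr fun y _ => ?_)
        obtain ⟨v, rfl⟩ := q.surj y
        exact r.e_mem_uv.mp (e1.ge (r.e_mem v)))
    ((H8.up_le_up_iff r.surj).mp (by rwa [r.up_down' um.lt.le])) (ea_map (ea_subgroupOf eA _) _)
  have h2 : Nat.card (down r.π A ⊓ cz Γ (⊤ : AddSubgroup V') : Subgroup Γ) ≤
      Nat.card (pCoreOf 2 L ⊓ A : Subgroup G) := by
    rw [← H8.down_up r.surj (_ ⊓ _), r.card_down' (H8.up_le _ _), H8.up_inf, r.up_down' AL]
    exact card_le_of_le (le_inf ((inf_le_inf_right _ hA).trans (um.inf_le_pCoreOf hS c2 nC)) inf_le_left)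
  have h3 : Nat.card (K ⊓ U' : Subgroup G) ≤ Nat.card (fx V' (down r.π A)) * Nat.card (r.dv W') := by
    rw [← q.card_comap, ← r.card_dv inf_le_right]
    refine card_le_of_le' fun v hv => q.mem_fx.mpr ?_
    rintro _ ⟨a, ha, rfl⟩
    rw [r.mem_dv, r.e_smul_sub]
    simpa using inv_mem (w1 ((hK _ (u2 hv.2)).mp hv.1 a ha))
  rw [r.card_down' AL] at h1
  have h4 : Nat.card A * Nat.card (K ⊓ U' : Subgroup G) ≤
      Nat.card (pCoreOf 2 L ⊓ A : Subgroup G) * Nat.card U' := by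
    rw [← r.card_W, q.card_eq, ← mul_assoc]
    refine (Nat.mul_le_mul_left _ h3).trans ?_
    rw [← mul_assoc]
    exact Nat.mul_le_mul_right _ (h1.trans (Nat.mul_le_mul_right _ h2))
  refine le_trans ?_ (relIndex_le_of_le_right u2 index_ne_zero_of_finite)
  rw [← relIndex_mul_card_inf (pCoreOf 2 L) A, ← relIndex_mul_card_inf K U'] at h4
  refine Nat.le_of_mul_le_mul_right (h4.trans' ?_ |>.trans ?_)
    (Nat.mul_pos (Nat.card_pos (α := (pCoreOf 2 L ⊓ A : Subgroup G)))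
      (Nat.card_pos (α := (K ⊓ U' : Subgroup G)))) <;> exact le_of_eq (by ring)

end Cfsg.QR
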