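import Cfsg.Agent.QR.A1
import Cfsg.Agent.QR.E1
import Cfsg.Agent.QR.N1

/-! The configuration `V ≤ O₂(L)` of the qrc-lemma is contradictory. -/

namespace Cfsg.QR

open Subgroup Cfsg.H7
open scoped commutatorElement

variable {G : Type*} [Group G] [Finite G]

theorem nb (A : Subgroup G) : A ≤ normalizer ((⊥ : Subgroup G) : Set G) :=
  le_normalizer_of_normal

namespace Cf

variable {L S L₀ V : Subgroup G} (h : Cf L S L₀ V)
include h

theorem dich {U1 : Subgroup G} (h1 : U1 ≤ cl L V) (n1 : L ≤ normalizer (U1 : Set G)) :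
    pResidualOf 2 L ≤ centralizer (U1 : Set G) ∨ ⁅cl L V, pResidualOf 2 L⁆ ≤ U1 := by
  by_contra! k
  have US := h.UE.trans h.ES
  obtain ⟨A, AS, eA, nA, q, le⟩ := offender h.syl.isPGroup h.eaU US (h.syl.le.trans (n_cl L V))
    fun k => h.J ((le_inf (H9.J_le 2 S) k).trans h.CE)
  have UU := ea_le_centralizer h.eaU
  have CE := h.CE
  have ch := h.chain (pCoreOf 2 L ⊓ A) inf_le_left (eq_bot_iff.mpr ((commutator_mono
      (commutator_mono le_rfl inf_le_right) inf_le_right).trans q.le))
  have nU := n_cl L V
  have eU := h.eaU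
  set U := cl L V
  set E := pCoreOf 2 L
  have a1 : E.relIndex A ≤ (stab A U1).relIndex U :=
    no_over h.syl h.um eU nU h1 n1 k.2 AS eA fun u hu => by
      rw [mem_stab]
      refine ⟨fun k a ha => ?_, fun k => ⟨le_normalizer_of_le_centralizer
        (UU.trans (centralizer_anti h1)) hu, fun a ha => ?_⟩⟩
      · rw [← commutatorElement_inv, inv_mem_iff]; exact k.2 a ha
      · rw [← commutatorElement_inv, inv_mem_iff]; exact k a ha
  have a2 : E.relIndex A ≤ (centralizer (A : Set G)).relIndex U1 :=
    no_over h.syl h.um (ea_mono eU h1) n1 bot_le (nb _)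
      (fun e => k.1 (le_centralizer_of_commutator_le_bot e)) AS eA fun u _ => by
        simp only [mem_centralizer_iff, mem_bot, commutatorElement_eq_one_iff_mul_comm,
          SetLike.mem_coe, eq_comm]
  have s1 : U1 ≤ stab A U1 := le_stab_iff.mpr ⟨le_normalizer,
    commutator_le_right_of_le_normalizer (AS.trans (h.syl.le.trans n1))⟩
  have s2 : U ⊓ centralizer (A : Set G) ≤ stab A U1 := le_stab_iff.mpr
    ⟨le_normalizer_of_le_centralizer (inf_le_left.trans (UU.trans (centralizer_anti h1))),
      commutator_le_of_le_centralizer inf_le_right⟩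
  have u1 : E.relIndex A * E.relIndex A ≤ (U ⊓ centralizer (A : Set G)).relIndex U := by
    rw [← relIndex_mul_relIndex _ (stab A U1 ⊓ U) U (le_inf s2 inf_le_left) inf_le_right,
      inf_relIndex_right]
    refine Nat.mul_le_mul (a2.trans ?_) a1
    refine le_of_eq_of_le ?_ (ri_mono (le_inf s1 h1))
    rw [← inf_relIndex_right (U ⊓ _), inf_right_comm, inf_eq_right.mpr h1, inf_comm,
      inf_relIndex_right]
  have u2 : (centralizer (U : Set G)).relIndex A =
      (centralizer (U : Set G)).relIndex (E ⊓ A) * E.relIndex A := by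
    rw [relIndex_inf_mul_relIndex, ← inf_relIndex_right (_ ⊓ E), ← inf_relIndex_right (centralizer _)]
    congr 1
    exact le_antisymm (le_inf (le_inf inf_le_left ((le_inf (inf_le_right.trans AS)
      inf_le_left).trans CE)) inf_le_right) (inf_le_inf_right _ inf_le_left)
  have u3 : (U ⊓ centralizer ((E ⊓ A : Subgroup G) : Set G)).relIndex U ≤
      (U ⊓ centralizer (A : Set G)).relIndex U :=
    relIndex_le_of_le_left (inf_le_inf_left _ (centralizer_anti inf_le_right)) (ri_ne _ _)
  have t := two_le_ri nA
  rw [u2] at le t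
  by_cases c : E ⊓ A ≤ centralizer (U : Set G)
  · rw [relIndex_eq_one.mpr c] at le t
    nlinarith
  · have := (ch.2 c).trans_le u3
    generalize (centralizer (U : Set G)).relIndex (E ⊓ A) = b at *
    generalize E.relIndex A = a at *
    generalize (U ⊓ centralizer (A : Set G)).relIndex U = u at *
    rcases le_total a b with l | l <;> nlinarith

theorem false : False := by
  have eU := h.eaU
  have UU := ea_le_centralizer eU
  have nU := n_cl L V
  have UE := h.UE
  have ES := h.ES
  have VU := le_cl' L V
  have nE := le_normalizer_pCoreOf 2 L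
  have nX := le_normalizer_pResidualOf 2 L
  have EL := pCoreOf_le 2 L
  have XL := pResidualOf_le 2 L
  have sx := h.syl.sup_pResidualOf
  have di := @h.dich _ _ _ _ _ _ _
  have nXc := h.nXc
  have cX : ⁅⁅cl L V, pResidualOf 2 L⁆, pResidualOf 2 L⁆ = _ :=
    commutator_commutator_pResidualOf (ea_isPGroup eU) (XL.trans nU)
  have cF : ⁅⁅pCoreOf 2 L, pResidualOf 2 L⁆, pResidualOf 2 L⁆ = _ :=
    commutator_commutator_pResidualOf (isPGroup_pCoreOf 2 L) (XL.trans nE)
  have cE := @h.cE _ _ _ _ _ _ _ ⁅cl L V, pResidualOf 2 L⁆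
  have cl' := @cl_le _ _ L V
  have pE := isPGroup_pCoreOf 2 L
  set U := cl L V
  set E := pCoreOf 2 L
  set X := pResidualOf 2 L
  have WU : ⁅U, X⁆ ≤ U := commutator_le_left_of_le_normalizer (XL.trans nU)
  have nW : L ≤ normalizer ((⁅U, X⁆ : Subgroup G) : Set G) := le_normalizer_commutator nU nX
  have z : X ≤ centralizer ((⁅U, E⁆ : Subgroup G) : Set G) := by
    refine (di (commutator_le_left_of_le_normalizer (EL.trans nU))
      (le_normalizer_commutator nU nE)).resolve_right fun k => h.nL ?_
    have k1 : U ≤ V ⊔ ⁅U, X⁆ := cl' le_sup_left (sx.ge.trans (sup_le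
      (le_normalizer_sup h.nS (h.syl.le.trans nW))
      (le_normalizer_of_commutator_le (sup_le VU WU) le_sup_right)))
    rw [le_antisymm VU (le_of_le_sup_commutator (ea_isPGroup eU) pE
      (UE.trans (ES.trans h.nS)) (ES.trans h.nS) (EL.trans nU)
      (k1.trans (sup_le le_sup_right (k.trans le_sup_left))))]
    exact nU
  set F := ⁅E, X⁆ with hF
  have FE : F ≤ E := commutator_le_left_of_le_normalizer (XL.trans nE)
  have FX : F ≤ X := commutator_le_right_of_le_normalizer (EL.trans nX)
  have nF : L ≤ normalizer (F : Set G) := le_normalizer_commutator nE nX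
  have zF : X ≤ centralizer ((⁅U, F⁆ : Subgroup G) : Set G) :=
    z.trans (centralizer_anti (commutator_mono le_rfl FE))
  have YU : ⁅U, F⁆ ≤ U := commutator_le_left_of_le_normalizer ((FE.trans EL).trans nU)
  have nY : L ≤ normalizer ((⁅U, F⁆ : Subgroup G) : Set G) := le_normalizer_commutator nU nF
  by_cases c : ⁅U, F⁆ = ⊥
  · refine nXc (commutator_eq_bot_iff'.mp (cX ▸ commutator_eq_bot_iff'.mpr
      (cE (ea_mono eU WU) (WU.trans (UE.trans ES)) nW (le_centralizer_of_commutator_le_bot
        (three_subgroups (nb _) (nb _) (nb _) ?_ ?_)))))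
    · rw [commutator_comm X E, commutator_comm, c]
    · rw [commutator_comm E U]; exact commutator_le_of_le_centralizer z
  obtain ⟨D, D1, D2, D3⟩ := exists_two (ea_mono eU YU) (commutator_lt (ea_isPGroup (ea_mono eU YU))
    (h.syl.le.trans nY) (by rw [pResidualOf_eq_bot_of_isPGroup h.syl.isPGroup]; exact bot_le) c)
  have nD : L ≤ normalizer (D : Set G) := sx.ge.trans (sup_le
    (le_normalizer_of_commutator_le D2.le D1)
    (le_normalizer_of_le_centralizer (zF.trans (centralizer_anti D2.le))))
  have UL := UE.trans EL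
  have K : X ≤ centralizer ((U ⊓ stab F D : Subgroup G) : Set G) := by
    refine (di inf_le_left (le_normalizer_inf nU (le_normalizer_stab nF nD))).resolve_right
      fun k => D2.not_ge ?_
    rw [commutator_comm, ← cF]
    refine three_subgroups ((FE.trans EL).trans nD) (XL.trans nD) (UL.trans nD) ?_
      (commutator_le_of_le_centralizer zF)
    rw [commutator_comm X U, commutator_comm]
    exact (commutator_mono le_rfl (k.trans inf_le_right)).trans (commutator_stab_le _ _)
  refine h.nq F (FE.trans ES) ⟨fun k => h.nX (le_normalizer_of_le_centralizer (K.trans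
    (centralizer_anti (le_inf VU (le_stab_iff.mpr ⟨(VU.trans UL).trans nD,
      commutator_le_of_le_centralizer (le_centralizer_iff.mp k)⟩))))),
    commutator_eq_bot_iff'.mpr (FX.trans (zF.trans (centralizer_anti
      (commutator_mono VU le_rfl)))), ?_⟩
  calc _ ≤ (stab F D ⊓ V).relIndex V := relIndex_le_of_le_left (le_inf inf_le_right
        (le_centralizer_iff.mp (FX.trans (K.trans (centralizer_anti
          (le_inf (inf_le_right.trans VU) inf_le_left)))))) (ri_ne _ _)
    _ ≤ (centralizer (V : Set G)).relIndex F := by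
      rw [inf_relIndex_right]
      exact pair_le (ea_le_centralizer h.ea) ((VU.trans UL).trans nD) ((FE.trans EL).trans nD)
        (FE.trans (ES.trans h.nS)) (commutator_mono VU le_rfl) D3
    _ ≤ _ := Nat.le_self_pow two_ne_zero _

end Cf

end Cfsg.QR
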