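import Cfsg.Agent.QR.D0

/-! Pushing up: a common normal subgroup inside the Baumann subgroup. -/

namespace Cfsg.QR

open Subgroup Cfsg.H7
open Cfsg.H9 (Zp)
open scoped commutatorElement

universe u

variable {G : Type u} [Group G] [Finite G] {T M M₀ H L R : Subgroup G}

theorem exists_block' (hR : IsSylowIn 2 R L) (hL : IsCharP 2 L) (h1 : ¬ L ≤ M)
    (hZ : L ⊓ centralizer (omegaOneCenter 2 R : Set G) ≤ M)
    (h2 : ∀ C ≤ baumannSubgroupOf 2 R, C ≠ ⊥ →
      (C.subgroupOf (baumannSubgroupOf 2 R)).Characteristic → L ⊓ normalizer (C : Set G) ≤ M) :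
    ∃ N ≤ L, IsMB 2 (baumannSubgroupOf 2 R) N ∧ ¬ pResidualOf 2 N ≤ M ∧
      ⁅pCoreOf 2 L, pResidualOf 2 N⁆ ≤ bW 2 (pResidualOf 2 N) ∧
      bW 2 (pResidualOf 2 N) ≤ pCoreOf 2 L := by
  have hi := L.subtype_injective
  have e0 := map_subgroupOf_eq_of_le hR.le
  have e1 : (baumannSubgroupOf 2 (R.subgroupOf L)).map L.subtype = baumannSubgroupOf 2 R := by
    rw [map_B hi, e0]
  have h : Hyp 2 (R.subgroupOf L) (M.subgroupOf L) := by
    refine ⟨subgroupOf_self L ▸ hR.subgroupOf le_rfl, isCharP_iff.mp hL, ?_, fun C c1 c2 c3 => ?_,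
      fun e => h1 (subgroupOf_eq_top.mp e)⟩
    · rw [← map_le_iff_sub, map_centralizer_subgroup, map_ΩZ hi, e0]
      exact hZ
    · rw [← map_le_iff_sub, map_normalizer_subgroup]
      have c4 : C.map L.subtype ≤ baumannSubgroupOf 2 R := e1 ▸ map_mono c1
      exact h2 _ c4 (mt (map_eq_bot_iff_of_injective _ hi).mp c2) (e1 ▸ char_map_inj hi c1 c3)
  obtain ⟨N, -, m, h3, -⟩ := h.exists_mb le_top fun e => h.ne (top_le_iff.mp e)
  have b := h.blk m.good.blk h3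
  refine ⟨N.map L.subtype, map_subtype_le N, e1 ▸ (isMB_map_iff hi).mpr m, ?_, ?_, ?_⟩ <;>
    rw [← map_pResidualOf_of_injective hi]
  · rwa [map_le_iff_sub]
  · rw [← map_bW hi, ← pCoreOf_def, ← map_commutator]
    exact map_mono (Blk.cO_le h.syl b (inf_le_right.trans (Blk.Q_eq_two b rfl).le))
  · rw [← map_bW hi]
    exact map_mono (Blk.W_le_O h.syl b h.char)

theorem common' (h : EC T) (h1 : T ≤ M₀) (hH : IsCharP 2 H) (um : UniqMax T H M)
    (QL : pCoreOf 2 H ≤ L) (LH : L ≤ H) (nL : ¬ L ≤ M) (hS : IsSylowIn 2 R L) (h2 : R ≤ T)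
    (nB : M₀ ≤ normalizer (baumannSubgroupOf 2 R : Set G))
    (hZ0 : L ⊓ centralizer (omegaOneCenter 2 R : Set G) ≤ M) :
    ∃ R₀, R₀ ≠ ⊥ ∧ R₀ ≤ baumannSubgroupOf 2 R ∧ M₀ ⊔ H ≤ normalizer (R₀ : Set G) := by
  by_contra hn
  have key : ∀ U, U ≠ ⊥ → U ≤ baumannSubgroupOf 2 R → M₀ ≤ normalizer (U : Set G) →
      H ⊓ normalizer (U : Set G) ≤ M :=
    fun U u1 u2 u3 => um.inf_le (h1.trans u3) fun u4 => hn ⟨U, u1, u2, sup_le u3 u4⟩
  have TH : T ≤ H := um.le.trans um.lt.le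
  obtain ⟨N, NL, m, f1, f2, -⟩ := exists_block' (M := M) hS (hH.of_pCoreOf_le LH QL) nL hZ0
    fun C c1 c2 c3 => (inf_le_inf_right _ LH).trans (key C c2 c1 (nB.trans (norm_le_of_char c1 c3)))
  set B := baumannSubgroupOf 2 R
  set F := pResidualOf 2 N with hF
  set W := bW 2 F
  set Z := Zp 2 N with hZ
  have b := m.good.blk
  have BR : B ≤ R := H9.B_le 2 R
  have WB : W ≤ B := m.W_le_Z.trans m.tz.le
  have FH : F ≤ H := (pResidualOf_le 2 N).trans (NL.trans LH)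
  have gen : ∀ X, T ≤ X → F ≤ X → H ≤ X := fun X x1 x2 =>
    um.le_of_not_le x1 fun e => f1 ((le_inf FH x2).trans e)
  have QO : pCoreOf 2 H ≤ pCoreOf 2 L :=
    le_pCoreOf (isPGroup_pCoreOf 2 H) QL (LH.trans (le_normalizer_pCoreOf 2 H))
  have qW : ∀ X, IsCharP 2 X → F ≤ X → pCoreOf 2 X ≤ pCoreOf 2 H → W ≤ pCoreOf 2 X :=
    fun X cX c1 q1 => by
      have nQ := c1.trans (le_normalizer_pCoreOf 2 X)
      have q3 := Blk.cc b (isPGroup_pCoreOf 2 X) nQ
      have q4 : ⁅pCoreOf 2 X, F⁆ ≤ W := (commutator_mono (q1.trans QO) le_rfl).trans f2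
      exact ((Blk.irr b (q4.trans (bW_le 2 F)) (normalizer_commutator_ge_right _ _)).resolve_left
        fun e => f1 (by
          rw [commutator_eq_bot_iff_le_centralizer.mpr e, eq_comm,
            commutator_eq_bot_iff_le_centralizer, le_centralizer_iff] at q3
          exact ((Blk.res b).symm.trans
            (pResidualOf_eq_bot_of_isPGroup (cX.isPGroup c1 q3))).le.trans bot_le)).trans
        (commutator_le_left_of_le_normalizer nQ)
  have f3 := qW H hH FH le_rfl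
  -- a conjugate of `Z` not centralizing `W`
  obtain ⟨d, hd, d1⟩ : ∃ d ∈ M₀, ¬ W ≤ centralizer (cj d Z : Set G) := by
    by_contra! e
    have u1 : W ≤ ⨆ g ∈ M₀, cj g W := le_iSup₂_of_le 1 (one_mem _) (cj_one W).ge
    have u2 : ⨆ g ∈ M₀, cj g W ≤ pCoreOf 2 N := iSup₂_le fun g hg => m.inf_CZ ▸ le_inf
      (cj_le_of_le (nB hg) WB) (by simpa [← cj_mul] using cj_le_centralizer_cj g (e _ (inv_mem hg)))
    exact f1 ((le_inf FH (le_normalizer_of_commutator_le u2 (m.cQ.le.trans u1))).trans (key _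
      (ne_bot_of_le u1 m.good.W_ne) (u2.trans m.syl.pCoreOf_le) (le_normalizer_biSup _ _)))
  have z1 : cj 1 Z = Z := cj_one Z
  have d2 : ¬ Z ≤ centralizer (cj d Z : Set G) := fun e => d1 (m.W_le_Z.trans e)
  have d3 : ¬ cj d Z ≤ centralizer (Z : Set G) := mt le_centralizer_iff.mp d2
  have d4 : d ^ 2 ∈ normalizer (Z : Set G) := by
    have := m.eq_of (one_mem _) (nB hd) (nB (inv_mem hd)) (z1.symm ▸ d3)
      (by simpa [← cj_mul] using not_cent_cj d⁻¹ d2)
    rw [mem_normalizer_iff_cj, pow_two, cj_mul, this, ← cj_mul, mul_inv_cancel, cj_one]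
  obtain ⟨s, hs, o, ho, s1, o1, e1⟩ := exists_pPart_mul_pPrimePart 2 (orderOf_pos d).ne'
  have e2 : cj s Z = cj d Z := by
    obtain ⟨i, rfl⟩ := ho
    rw [← e1, cj_mul, cj_eq_of_mem_normalizer (mem_of_pow_mem_of_coprime o1 (by
      rw [← zpow_natCast, ← zpow_mul, mul_comm, zpow_mul, zpow_natCast]; exact zpow_mem d4 i))]
  obtain ⟨a, ha, t₀⟩ := (h.syl.mono h1 le_top).exists_conj_mem s1 (zpowers_le.mpr hd hs)
  have y1 : ¬ cj (a * s * a⁻¹ * a) Z ≤ centralizer (cj a Z : Set G) := by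
    rw [inv_mul_cancel_right, cj_mul, e2]; exact not_cent_cj a d3
  have y2 : ∀ t ∈ T, ¬ cj (t * (a * s * a⁻¹) * t⁻¹) (cj (t * a) Z) ≤
      centralizer (cj (t * a) Z : Set G) := fun t _ => by
    rw [← cj_mul, show t * (a * s * a⁻¹) * t⁻¹ * (t * a) = t * (a * s * a⁻¹ * a) by group, cj_mul t,
      cj_mul t]
    exact not_cent_cj t y1
  have y3 : ∀ t ∈ T, cj t Z ≠ cj d Z := fun t ht e => d1 (by
    rw [← e, hZ, H9.cj_Zp]
    exact (le_inf f3 WB).trans ((m.conj' (nB (h1 ht))).inf_le (isPGroup_pCoreOf 2 H)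
      ((cj_le_of_le' (TH ht) (NL.trans LH)).trans (le_normalizer_pCoreOf 2 H))))
  have y4 : ∀ t ∈ T, cj t (cj a Z) ≤ B ⊓ centralizer (Z : Set G) ⊓ centralizer (cj d Z : Set G) :=
    fun t ht => by
      have m1 := nB (mul_mem (h1 ht) ha)
      have m2 := mul_mem (mul_mem ht t₀) (inv_mem ht)
      have m3 := mul_mem (nB (h1 m2)) m1
      have := y2 t ht
      rw [← cj_mul]
      refine le_inf (le_inf (m.tz' m1).le (by_contra fun e => ?_)) (by_contra fun e => ?_)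
      · have e3 := m.eq_of (one_mem _) m1 (nB hd) (z1.symm ▸ e) (z1.symm ▸ d3)
        have e4 := m.eq_of m1 m3 (one_mem _) (cj_mul _ _ Z ▸ this) (by rwa [e3, z1])
        rw [cj_mul, e3, z1] at e4
        exact y3 _ (inv_mem m2) ((congrArg _ e4.symm).trans
          (by rw [← cj_mul, inv_mul_cancel, cj_one]))
      · have e3 := m.eq_of (nB hd) m1 (one_mem _) e (z1.symm ▸ d2)
        have e4 := m.eq_of m1 m3 (nB hd) (cj_mul _ _ Z ▸ this) (by rwa [e3, z1])
        rw [cj_mul, e3, z1] at e4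
        exact y3 _ m2 e4
  set U := ⨆ t ∈ T, cj t (cj a Z)
  have u1 : U ≤ B ⊓ centralizer (Z : Set G) ⊓ centralizer (cj d Z : Set G) := iSup₂_le y4
  have u2 : U ≤ T := u1.trans (inf_le_left.trans (inf_le_left.trans (BR.trans h2)))
  have nU : T ≤ normalizer (U : Set G) := le_normalizer_biSup _ _
  obtain ⟨z, hz, z2, z3, z4⟩ := exists_central_elem (R := ⁅U, U⁆) (h.syl.isPGroup.to_le
    ((commutator_le_left_of_le_normalizer le_normalizer).trans u2)) h.syl.isPGroup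
    (le_normalizer_commutator nU nU) fun e => y1 (by
      rw [cj_mul]
      exact (le_iSup₂_of_le _ t₀ le_rfl : _ ≤ U).trans ((commutator_eq_bot_iff_le_centralizer.mp e).trans
        (centralizer_anti (le_iSup₂_of_le 1 (one_mem _) (cj_one _).ge))))
  have c1 : F ≤ centralizer {z} := le_centralizer_singleton_iff.mpr (commutator_le.mpr
    (fun x hx y hy => m.tz.cc (u1 hx).1 (u1 hy).1) hz)
  have c2 : pResidualOf 2 (cj d N) ≤ centralizer {z} := le_centralizer_singleton_iff.mpr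
    (commutator_le.mpr (fun x hx y hy => (m.tz' (nB hd)).cc ⟨(u1 hx).1.1, (u1 hx).2⟩
      ⟨(u1 hy).1.1, (u1 hy).2⟩) hz)
  have c3 : T ≤ centralizer {z} := le_centralizer_singleton_iff.mpr z3
  have cX : IsCharP 2 (centralizer {z}) := h.char c3 (isPGroup_zpowers ⟨1, z4⟩)
    (ne_bot_of_mem (mem_zpowers z) z2)
    (centralizer_zpowers z ▸ centralizer_le_normalizer _)
  set Q := pCoreOf 2 (centralizer {z})
  have pQ : IsPGroup 2 Q := isPGroup_pCoreOf 2 _
  have nQ : centralizer {z} ≤ normalizer (Q : Set G) := le_normalizer_pCoreOf 2 _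
  have q1 : Q ≤ pCoreOf 2 H := le_pCoreOf pQ ((h.syl.mono c3 le_top).pCoreOf_le.trans TH)
    ((gen _ c3 c1).trans nQ)
  have q5 : W ≤ Q := qW _ cX c1 q1
  refine d1 ((le_inf q5 WB).trans ?_)
  rw [hZ, H9.cj_Zp]
  exact (m.conj' (nB hd)).inf_le pQ (((m.conj' (nB hd)).syl.sup_pResidualOf.ge.trans
    (sup_le (BR.trans (h2.trans c3)) c2)).trans nQ)

end Cfsg.QR
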