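import Cfsg.Agent.QR.A2
import Cfsg.Agent.QR.P1

/-! The qrc-lemma. -/

namespace Cfsg.QR

open Subgroup Cfsg.H7
open scoped commutatorElement

variable {G : Type*} [Group G] [Finite G]

theorem Qd.param {B V X : Subgroup G} (h : Qd B V) (hV : IsElementaryAbelian 2 V) (hB : B ≤ X)
    (hX : X ≤ normalizer (V : Set G)) : QuadParamLE X V 2 := by
  refine ⟨B, hB, ⟨h.1, fun b hb v hv => ?_, fun b hb c hc => ?_⟩, h.2.1, h.2.2⟩
  · have k := commutator_mem_commutator (H₁ := V) hv hb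
    have k1 : ⁅v, b⁆ * b = b * ⁅v, b⁆ := commutator_eq_bot_iff'.mp h.2.1 hb _ k
    have k2 : ⁅v, b⁆ * ⁅v, b⁆ = 1 := by
      rw [← sq]
      exact (isElementaryAbelian_iff.mp hV).2 _
        (commutator_le_left_of_le_normalizer (hB.trans hX) k)
    calc v * b ^ 2 = ⁅v, b⁆ * b * ⁅v, b⁆ * b * v := by rw [commutatorElement_def, sq]; group
      _ = b * (⁅v, b⁆ * ⁅v, b⁆) * b * v := by rw [k1]; group
      _ = _ := by rw [k2, sq, mul_one]
  · have k : ⁅⁅B, B⁆, V⁆ ≤ ⊥ := three_subgroups (nb _) (nb _) (nb _)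
      (by rw [commutator_comm B V]; exact h.2.1.le) h.2.1.le
    exact le_centralizer_iff.mp (le_centralizer_of_commutator_le_bot k)
      (commutator_mem_commutator hb hc)

theorem Cb.param {B V X : Subgroup G} (h : Cb B V) (hB : B ≤ X) : CubicParamLE X V 2 := by
  refine ⟨B, hB, ⟨h.1, fun b hb => ?_, fun b hb c hc => ?_⟩, h.2.2.1, h.2.2.2⟩
  · rw [(isElementaryAbelian_iff.mp h.2.1).2 b hb]; exact one_mem _
  · rw [ea_le_centralizer h.2.1 hc b hb]; simp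

theorem exists_C {T M₀ M' V : Subgroup G} (hT : IsSylowIn 2 T M₀) (TM : T ≤ M')
    (hR : pCoreOf 2 M₀ = T ⊓ centralizer (V : Set G))
    (hI : M' ≤ normalizer (pResidualOf 2 M₀ : Set G) ∨ M' ≤ normalizer (V : Set G)) :
    ∃ C : Subgroup G, M' ≤ normalizer (C : Set G) ∧ T ⊓ C = pCoreOf 2 M₀ := by
  rcases hI with hI | hI
  swap
  · exact ⟨_, le_normalizer_centralizer hI, hR.symm⟩
  have nY := le_normalizer_pResidualOf 2 M₀
  have YM := pResidualOf_le 2 M₀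
  have sx := hT.sup_pResidualOf
  set Y := pResidualOf 2 M₀
  have nC : M' ≤ normalizer (stab Y (pCoreOf 2 Y) : Set G) :=
    le_normalizer_stab hI (le_normalizer_pCoreOf' 2 hI)
  have k : pCoreOf 2 M₀ ≤ T ⊓ stab Y (pCoreOf 2 Y) := le_inf hT.pCoreOf_le (le_stab_iff.mpr
    ⟨(pCoreOf_le 2 M₀).trans (le_normalizer_pCoreOf' 2 nY), by
      rw [pCoreOf_eq_inf_of_normal YM nY, inf_comm]
      exact commutator_le_inf' ((pCoreOf_le 2 M₀).trans nY)
        (YM.trans (le_normalizer_pCoreOf 2 M₀))⟩)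
  refine ⟨_, nC, le_antisymm (le_pCoreOf hT.isPGroup.to_inf_left (inf_le_left.trans hT.le)
    (sx.ge.trans (sup_le (le_normalizer_inf le_normalizer (TM.trans nC))
      (le_normalizer_of_commutator_le inf_le_right ?_)))) k⟩
  rw [commutator_comm]
  exact (commutator_stab_le _ _).trans ((pCoreOf_le_of_normal YM nY).trans k)

theorem exists_L {T H M R Q C : Subgroup G} (hT : IsSylowIn 2 T H) (TM : T ≤ M) (MH : M ≤ H)
    (nl : ¬ H ≤ M) (RT : R ⊔ Q ≤ T) (nQ : H ≤ normalizer (Q : Set G))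
    (nC : M ≤ normalizer (C : Set G)) (hC : T ⊓ C = R)
    (hS : ∀ S, R ≤ S → S ≤ H → IsPGroup 2 S → S ≤ M) :
    ∃ L S, L ≤ H ∧ IsSylowIn 2 S L ∧ R ⊔ Q ≤ S ∧ S ≤ T ∧ UniqMax (R ⊔ Q) L (L ⊓ M) := by
  obtain ⟨L, -, mn⟩ := Set.Finite.exists_le_minimal
    (Set.toFinite {L : Subgroup G | R ⊔ Q ≤ L ∧ L ≤ H ∧ ¬ L ≤ M}) ⟨RT.trans hT.le, le_rfl, nl⟩
  obtain ⟨l1, l2, l3⟩ : R ⊔ Q ≤ L ∧ L ≤ H ∧ ¬ L ≤ M := mn.prop
  have um : UniqMax (R ⊔ Q) L (L ⊓ M) := ⟨le_inf l1 (RT.trans TM),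
    lt_of_le_not_ge inf_le_left fun k => l3 (k.trans inf_le_right),
    fun X x1 x2 => le_inf x2.le (by_contra fun k =>
      x2.not_ge (mn.le_of_le ⟨x1, x2.le.trans l2, k⟩ x2.le))⟩
  obtain ⟨S, s1, s2⟩ := exists_isSylowIn_ge (hT.isPGroup.to_le RT) l1
  obtain ⟨n, hn, s3⟩ := (hT.mono TM MH).exists_cj_le s1.isPGroup
    (hS S (le_sup_left.trans s2) (s1.le.trans l2) s1.isPGroup)
  have e1 : cj n R = R := cj_eq_of_mem_normalizer (mem_normalizer_of_cj_le ((le_inf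
    ((cj_mono (le_sup_left.trans s2)).trans s3)
    (cj_le_of_le (nC hn) (hC.ge.trans inf_le_right))).trans hC.le))
  have e2 : cj n (R ⊔ Q) = R ⊔ Q := by rw [cj_sup, e1, cj_eq_of_mem_normalizer (nQ (MH hn))]
  have k := um.cj n
  rw [e2, cj_inf, cj_eq_of_mem hn] at k
  exact ⟨cj n L, cj n S, cj_le_of_le' (MH hn) l2, s1.cj n, e2 ▸ cj_mono s2, s3, k⟩

theorem qrc {T M M₀ H V : Subgroup G} (h : EC T) (cM : IsCharP 2 M) (h1 : T ≤ M₀) (h2 : M₀ ≤ M)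
    (hH : IsCharP 2 H) (um : UniqMax T H (H ⊓ M)) (VM : V ≤ M₀) (nV : M₀ ≤ normalizer (V : Set G))
    (eV : IsElementaryAbelian 2 V) (hR : pCoreOf 2 M₀ = T ⊓ centralizer (V : Set G))
    (hI : H ⊓ M ≤ normalizer (pResidualOf 2 M₀ : Set G) ∨ H ⊓ M ≤ normalizer (V : Set G)) :
    (∃ R₀ : Subgroup G, R₀ ≠ ⊥ ∧ R₀ ≤ pCoreOf 2 M₀ ∧ M₀ ⊔ H ≤ normalizer (R₀ : Set G)) ∨
      (¬ V ≤ pCoreOf 2 H ∧ CubicParamLE M₀ V 2) ∨ QuadParamLE M₀ V 2 := by
  by_contra! hn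
  obtain ⟨n1, n2, n3⟩ := hn
  have TH : T ≤ H := um.le.trans inf_le_left
  have sH := h.syl.mono TH le_top
  have s0 := h.syl.mono h1 le_top
  have sM := h.syl.mono (h1.trans h2) le_top
  obtain ⟨C, nC, hC⟩ := exists_C s0 um.le hR hI
  have nR := le_normalizer_pCoreOf 2 M₀
  have OM : pCoreOf 2 M ≤ pCoreOf 2 M₀ := pCoreOf_le_pCoreOf_of_le h2 (sM.pCoreOf_le.trans h1)
  set R := pCoreOf 2 M₀
  have RT : R ≤ T := s0.pCoreOf_le
  have RV : R ≤ centralizer (V : Set G) := hR.le.trans inf_le_right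
  have key : ∀ U, U ≠ ⊥ → U ≤ R → M₀ ≤ normalizer (U : Set G) →
      H ⊓ normalizer (U : Set G) ≤ H ⊓ M :=
    fun U u1 u2 u3 => um.inf_le (h1.trans u3) fun u4 => n1 U u1 u2 (sup_le u3 u4)
  have nq : ∀ B ≤ T, ¬ Qd B V := fun B hB k => n3 (k.param eV (hB.trans h1) nV)
  have VT : V ≤ T := s0.le_of_normal (ea_isPGroup eV) VM nV
  have VR : V ≤ R := hR.ge.trans' (le_inf VT (ea_le_centralizer eV))
  have V1 : V ≠ ⊥ := by
    rintro rfl
    rw [centralizer_bot', inf_top_eq] at hR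
    obtain ⟨R₀, r1, r2, r3⟩ := h.common h1 hH um le_rfl
      (by rw [sup_comm, sH.sup_pResidualOf]; exact sH) (hR ▸ nR)
    exact n1 R₀ r1 (hR ▸ r2) r3
  have JV : thompsonSubgroupOf 2 T ≤ centralizer (V : Set G) := by
    by_contra k
    obtain ⟨A, a1, -, a2, a3, a4⟩ := offender h.syl.isPGroup eV VT (h1.trans nV) k
    exact nq A a1 ⟨a2, a3, a4.trans (Nat.le_self_pow two_ne_zero _)⟩
  have JR : thompsonSubgroupOf 2 T ≤ R := hR.ge.trans' (le_inf (H9.J_le 2 T) JV)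
  have BR : baumannSubgroupOf 2 T ≤ R := hR.ge.trans' (le_inf (H9.B_le 2 T)
    ((H9.B_le_centralizer 2 T).trans (centralizer_anti (H9.le_omegaOneCenter_J VT
      (isElementaryAbelian_iff.mp eV).2 (le_centralizer_iff.mp JV)))))
  have nB : M₀ ≤ normalizer (baumannSubgroupOf 2 T : Set G) :=
    H9.B_eq_of_le BR RT ▸ nR.trans (H9.normalizer_le_normalizer_B 2 R)
  have nJ : M₀ ≤ normalizer (thompsonSubgroupOf 2 T : Set G) :=
    H9.J_eq_of_le JR RT ▸ nR.trans (H9.normalizer_le_normalizer_J 2 R)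
  have J1 := H9.J_ne_bot h.syl.isPGroup (ne_bot_of_le VT V1)
  have nQ := le_normalizer_pCoreOf 2 H
  have QT := sH.pCoreOf_le
  obtain ⟨L, S, LH, hS, RS, ST, u⟩ := exists_L sH um.le inf_le_left um.not_le (sup_le RT QT) nQ nC hC
    fun S r1 r2 r3 => by
      obtain ⟨g, -, hg⟩ := sH.exists_le_cj r3 r2
      exact (le_inf r2 (H9.J_eq_of_le_cj (JR.trans r1) hg ▸ H9.le_normalizer_J 2 S)).trans
        (key _ J1 JR nJ)
  have nL : ¬ L ≤ H ⊓ M := fun k => u.not_le (le_inf le_rfl k)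
  have QL : pCoreOf 2 H ≤ L := le_sup_right.trans (RS.trans hS.le)
  have RS' : R ≤ S := le_sup_left.trans RS
  have eB := H9.B_eq_of_le (BR.trans RS') ST
  have eJ := H9.J_eq_of_le (JR.trans RS') ST
  have SM : S ≤ L ⊓ (H ⊓ M) := le_inf hS.le (ST.trans um.le)
  have uS := u.mono RS SM
  by_cases c : V ≤ pCoreOf 2 L
  · refine Cf.false (L := L) ⟨hS, uS, hH.of_pCoreOf_le LH QL, eV, c, ST.trans (h1.trans nV),
      fun k => nL ((le_inf LH k).trans (key V V1 VR nV)), fun k => nL ((le_inf LH ?_).trans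
        (key _ J1 JR nJ)), le_centralizer_iff.mp (by_contra fun k => ?_),
      fun B hB => nq B (hB.trans ST)⟩
    · rw [← eJ, ← H9.J_eq_of_le k hS.pCoreOf_le]
      exact (le_normalizer_pCoreOf 2 L).trans (H9.normalizer_le_normalizer_J 2 _)
    · obtain ⟨R₀, r1, r2, r3⟩ := common' h h1 hH um QL LH nL hS ST (eB ▸ nB)
        ((uS.inf_le (le_centralizer_omegaOneCenter 2 S) k).trans inf_le_right)
      exact n1 R₀ r1 (r2.trans (eB ▸ BR)) r3
  have VO : V ≤ pCoreOf 2 M := cM.le_pCoreOf (VM.trans h2)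
    (le_centralizer_iff.mp (OM.trans RV))
  have f : Ff L (L ⊓ (H ⊓ M)) R (pCoreOf 2 H) S (pCoreOf 2 (L ⊓ (H ⊓ M))) V :=
    ⟨hS, u, RS, LH.trans nQ, hH.le_pCoreOf (inf_le_left.trans LH) inf_le_right, eV,
      ST.trans (h1.trans nV), RV, (inf_le_inf_right _ ST).trans hR.ge, isPGroup_pCoreOf _ _,
      (le_inf VO (VR.trans (RS'.trans SM))).trans
        (pCoreOf_inf_le (inf_le_right.trans inf_le_right)),
      pCoreOf_le _ _, le_normalizer_pCoreOf _ _, by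
        rw [← hC, inf_right_comm, inf_eq_right.mpr QT]
        exact inf_le_right.trans (le_normalizer_inf (inf_le_left.trans nQ) nC), c⟩
  obtain ⟨B, b1, b2 | b2⟩ := f.main
  · exact nq B (b1.trans ST) b2
  · exact n2 (fun k => c (k.trans (pCoreOf_le_pCoreOf_of_le LH QL)))
      (b2.param (b1.trans (ST.trans h1)))

end Cfsg.QR
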