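import Cfsg.Agent.H7.QT1

/-! Definitions for the qrc-lemma. -/

namespace Cfsg.QR

open Subgroup Cfsg.H7

variable {G : Type*} [Group G]

/-- `B` is a quadratic `2F`-offender on `V`. -/
def Qd (B V : Subgroup G) : Prop :=
  ¬ B ≤ centralizer (V : Set G) ∧ ⁅⁅V, B⁆, B⁆ = ⊥ ∧
    (V ⊓ centralizer (B : Set G)).relIndex V ≤ ((centralizer (V : Set G)).relIndex B) ^ 2

/-- `B` is a cubic `2F`-offender on `V`. -/
def Cb (B V : Subgroup G) : Prop :=
  ¬ B ≤ centralizer (V : Set G) ∧ IsElementaryAbelian 2 B ∧ ⁅⁅⁅V, B⁆, B⁆, B⁆ = ⊥ ∧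
    (V ⊓ centralizer (B : Set G)).relIndex V ≤ ((centralizer (V : Set G)).relIndex B) ^ 2

/-- The subgroup generated by the conjugates of `V` under `L`. -/
def cl (L V : Subgroup G) : Subgroup G := ⨆ g ∈ L, cj g V

/-- The configuration `V ≤ O₂(L)`. -/
structure Cf (L S L₀ V : Subgroup G) : Prop where
  syl : IsSylowIn 2 S L
  um : UniqMax S L L₀
  ch : IsCharP 2 L
  ea : IsElementaryAbelian 2 V
  le : V ≤ pCoreOf 2 L
  nS : S ≤ normalizer (V : Set G)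
  nL : ¬ L ≤ normalizer (V : Set G)
  J : ¬ thompsonSubgroupOf 2 S ≤ pCoreOf 2 L
  Z : omegaOneCenter 2 S ≤ centralizer (L : Set G)
  nq : ∀ B ≤ S, ¬ Qd B V

end Cfsg.QR
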