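import Cfsg.Agent.QR.D0
import Cfsg.Agent.L0.Dihedral

/-! The case `V ≰ O₂(L)` of the qrc-lemma. -/

namespace Cfsg.QR

open Subgroup Cfsg.H7
open scoped commutatorElement

variable {G : Type*} [Group G]

theorem ri_cj (g : G) (H K : Subgroup G) : (cj g H).relIndex (cj g K) = H.relIndex K :=
  relIndex_map_map_of_injective H K (MulAut.conj g).injective

theorem ri_ne [Finite G] (H K : Subgroup G) : H.relIndex K ≠ 0 := index_ne_zero_of_finite

theorem Qd.cj {B V : Subgroup G} (h : Qd B V) (g : G) : Qd (cj g B) (cj g V) :=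
  ⟨by rw [← cj_centralizer, cj_le_cj_iff]; exact h.1,
    by rw [← cj_commutator, ← cj_commutator, h.2.1, cj_bot],
    by rw [← cj_centralizer, ← cj_centralizer, ← cj_inf, ri_cj, ri_cj]; exact h.2.2⟩

theorem Cb.cj {B V : Subgroup G} (h : Cb B V) (g : G) : Cb (cj g B) (cj g V) :=
  ⟨by rw [← cj_centralizer, cj_le_cj_iff]; exact h.1, ea_cj h.2.1 g,
    by rw [← cj_commutator, ← cj_commutator, ← cj_commutator, h.2.2.1, cj_bot],
    by rw [← cj_centralizer, ← cj_centralizer, ← cj_inf, ri_cj, ri_cj]; exact h.2.2.2⟩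

theorem le_cl {L V : Subgroup G} {g : G} (hg : g ∈ L) : cj g V ≤ cl L V :=
  le_iSup₂_of_le g hg le_rfl

theorem le_cl' (L V : Subgroup G) : V ≤ cl L V := (cj_one V).ge.trans (le_cl (one_mem L))

theorem cl_le {L V N : Subgroup G} (h : V ≤ N) (hn : L ≤ normalizer (N : Set G)) : cl L V ≤ N :=
  iSup₂_le fun _ hg => cj_le_of_le (hn hg) h

theorem n_cl (L V : Subgroup G) : L ≤ normalizer (cl L V : Set G) := le_normalizer_biSup L V

/-- The intersection of the conjugates. -/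
def core (L V : Subgroup G) : Subgroup G := ⨅ g ∈ L, cj g V

theorem core_le {L V : Subgroup G} {g : G} (hg : g ∈ L) : core L V ≤ cj g V := iInf₂_le g hg

theorem le_core {L V N : Subgroup G} (h : N ≤ V) (hn : L ≤ normalizer (N : Set G)) :
    N ≤ core L V := le_iInf₂ fun _ hg => (cj_eq_of_mem_normalizer (hn hg)).ge.trans (cj_mono h)

theorem n_core (L V : Subgroup G) : L ≤ normalizer (core L V : Set G) :=
  le_normalizer_iff_cj.mpr fun a ha => le_iInf₂ fun g hg => by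
    rw [cj_le_iff, ← cj_mul]
    exact core_le (mul_mem (inv_mem ha) hg)

/-- Two conjugates that normalize each other and are interchanged. -/
theorem qd_of_swap [Finite G] {V W : Subgroup G} (hW : IsElementaryAbelian 2 W)
    (h1 : W ≤ normalizer (V : Set G)) (h2 : V ≤ normalizer (W : Set G))
    (h3 : ¬ W ≤ centralizer (V : Set G))
    (h4 : (centralizer (W : Set G)).relIndex V ≤ (centralizer (V : Set G)).relIndex W) : Qd W V := by
  refine ⟨h3, commutator_eq_bot_iff'.mpr ((ea_le_centralizer hW).trans (centralizer_anti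
    ((commutator_le_inf' h1 h2).trans inf_le_right))), ?_⟩
  rw [inf_comm, inf_relIndex_right]
  exact h4.trans (Nat.le_self_pow two_ne_zero _)

/-- The configuration `V ≰ O₂(L)`. -/
structure Ff (L L₀ R Q S P V : Subgroup G) : Prop where
  syl : IsSylowIn 2 S L
  um : UniqMax (R ⊔ Q) L L₀
  RQ : R ⊔ Q ≤ S
  nQ : L ≤ normalizer (Q : Set G)
  cQ : L ⊓ centralizer (Q : Set G) ≤ Q
  ea : IsElementaryAbelian 2 V
  nS : S ≤ normalizer (V : Set G)
  RV : R ≤ centralizer (V : Set G)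
  CR : S ⊓ centralizer (V : Set G) ≤ R
  pP : IsPGroup 2 P
  VP : V ≤ P
  PL : P ≤ L₀
  nP : L₀ ≤ normalizer (P : Set G)
  nR : L₀ ≤ normalizer ((R ⊓ Q : Subgroup G) : Set G)
  nle : ¬ V ≤ pCoreOf 2 L

namespace Ff

variable [Finite G] {L L₀ R Q S P V : Subgroup G} (h : Ff L L₀ R Q S P V)
include h

theorem VL : V ≤ L := h.VP.trans (h.PL.trans h.um.lt.le)

theorem QS : Q ≤ S := le_sup_right.trans h.RQ

theorem SL : S ≤ L₀ := (h.um.eq_or_le h.RQ h.syl.le).resolve_left fun e => h.nle (by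
  rw [pCoreOf_eq_self_iff.mpr (e ▸ h.syl.isPGroup)]; exact h.VL)

theorem cent1 {b x : G} (hb : b ∈ V) (hD : b ∉ core L V) (hx : x ∈ L)
    (e : x * b * x⁻¹ * b⁻¹ ∈ core L V) : x ∈ L₀ := by
  have DV : core L V ≤ V := (core_le (one_mem L)).trans (cj_one V).le
  have QL : Q ≤ L := h.QS.trans h.syl.le
  set N := core L V ⊔ cl Q (zpowers b) with hN
  have NV : N ≤ V := sup_le DV (cl_le (zpowers_le.mpr hb) (h.QS.trans h.nS))
  have nQ : Q ≤ normalizer (N : Set G) := le_normalizer_sup (QL.trans (n_core L V)) (n_cl _ _)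
  have bN : b ∈ N := mem_sup_right (le_cl' _ _ (mem_zpowers b))
  refine h.um.inf_le (X := normalizer (N : Set G)) (sup_le (le_normalizer_of_le_centralizer
    (h.RV.trans (centralizer_anti NV))) nQ) (fun k => hD (le_core NV k bN)) ⟨hx, ?_⟩
  refine mem_normalizer_of_cj_le ?_
  rw [hN, cj_sup, cj_eq_of_mem_normalizer (n_core L V hx)]
  refine sup_le le_sup_left ?_
  rw [cj_le_iff]
  refine iSup₂_le fun q hq => ?_
  rw [← cj_le_iff, ← cj_mul, show x * q = x * q * x⁻¹ * x by group, cj_mul]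
  refine cj_le_of_le (nQ ((mem_normalizer_iff.mp (h.nQ hx) q).mp hq)) ?_
  rw [cj_zpowers, zpowers_le]
  simpa using mul_mem (mem_sup_left e : _ ∈ N) bN

theorem cent {g b x : G} (hg : g ∈ L) (hb : b ∈ cj g V) (hD : b ∉ core L V) (hx : x ∈ L)
    (e : x * b * x⁻¹ * b⁻¹ ∈ core L V) : x ∈ cj g L₀ := by
  have k := cj_eq_of_mem_normalizer (n_core L V hg)
  rw [← k] at hD e
  rw [mem_cj] at hD e hb ⊢
  refine h.cent1 hb hD (mul_mem (mul_mem (inv_mem hg) hx) hg) ?_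
  convert e using 1
  group

theorem exb {g : G} (hg : g ∈ L) : ∃ b ∈ cj g V, b ∈ Q ∧ b ∉ core L V := by
  by_contra! k
  have k1 : V ⊓ Q ≤ core L V := by
    rw [← cj_le_cj_iff (g := g), cj_inf, cj_eq_of_mem_normalizer (h.nQ hg),
      cj_eq_of_mem_normalizer (n_core L V hg)]
    exact fun b hb => k b hb.1 hb.2
  have k2 : cl L V ≤ stab Q (core L V) := cl_le (le_stab_iff.mpr ⟨h.VL.trans (n_core L V),
    (commutator_le_inf' (h.VL.trans h.nQ) (h.QS.trans h.nS)).trans (inf_comm Q V ▸ k1)⟩)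
    (le_normalizer_stab h.nQ (n_core L V))
  have k3 : cl L V ≤ centralizer (core L V : Set G) := iSup₂_le fun a ha =>
    (ea_le_centralizer (ea_cj h.ea a)).trans (centralizer_anti (core_le ha))
  have k4 : cl L V ≤ L := cl_le h.VL le_normalizer
  have k5 := pResidualOf_le_centralizer (p := 2) (le_stab_iff.mp k2).2 (commutator_eq_bot_iff'.mpr k3)
    ((ea_isPGroup (ea_cj h.ea 1)).to_le (core_le (one_mem L)))
  exact h.nle ((le_cl' L V).trans (le_pCoreOf (isPGroup_of_pResidualOf_le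
    (h.syl.isPGroup.to_le h.QS) ((le_inf ((pResidualOf_le 2 _).trans k4) k5).trans h.cQ)) k4
    (n_cl L V)))

theorem ext : ∃ w ∈ V, ∃ t ∈ L, t * t = 1 ∧ w ∉ cj t L₀ := by
  obtain ⟨w, hw, nw⟩ := SetLike.not_le_iff_exists.mp h.nle
  have ww : w * w = 1 := by rw [← sq]; exact h.ea.2 w hw
  obtain ⟨y, y1, y2, y3⟩ := L0.exists_inverted_of_not_mem_pCore (v := (⟨w, h.VL hw⟩ : L))
    (Subtype.ext ww) (mt mem_pCoreOf_iff.mpr nw)
  have y4 : w * y * w⁻¹ = (y : G)⁻¹ := congrArg Subtype.val y3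
  have wi : w⁻¹ = w := inv_eq_of_mul_eq_one_right ww
  refine ⟨w, hw, y * w, mul_mem y.2 (h.VL hw), L0.mul_self_of_inverts ww y4, fun k => y1 ?_⟩
  have k1 : y * w * w * (y * w)⁻¹ ∈ cj (y * w) P := conj_mem_cj (h.VP hw)
  have k2 := mul_mem ((mem_normalizer_iff.mp (cj_le_normalizer_cj _ h.nP k) _).mp k1) k1
  have e : w * (y * w * w * (y * w)⁻¹) * w⁻¹ * (y * w * w * (y * w)⁻¹) = ((y : G) ^ 2 ^ 2)⁻¹ := by
    have y5 : w * (y : G)⁻¹ * w⁻¹ = y := by rw [← conj_inv, y4, inv_inv]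
    calc _ = (w * y * w⁻¹) * (w * w) * (y : G)⁻¹ * (w⁻¹ * y * w) * (y : G)⁻¹ := by group
      _ = _ := by
        rw [y4, ww, show w⁻¹ * y * w = (y : G)⁻¹ by rw [← y4, wi]]
        group
  rw [e, inv_mem_iff] at k2
  obtain ⟨n, hn⟩ := isPGroup_iff_mem.mp (isPGroup_cj h.pP) _ k2
  rw [← pow_mul, ← pow_add] at hn
  exact Subtype.ext (eq_one_of_coprime_of_pow (by
    rw [Subgroup.orderOf_coe]; exact Nat.coprime_two_right.mpr y2) hn)

theorem main : ∃ B ≤ S, Qd B V ∨ Cb B V := by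
  obtain ⟨w, hw, t, ht, tt, nw⟩ := h.ext
  have L0L := h.um.lt.le
  obtain ⟨m, hm, hB⟩ := (h.syl.mono h.SL L0L).exists_le_cj (Q := cj t P ⊓ L₀)
    ((isPGroup_cj h.pP).to_le inf_le_left) inf_le_right
  have ctt : ∀ X : Subgroup G, cj t (cj t X) = X := fun X => by rw [← cj_mul, tt, cj_one]
  have tm : t * m ∈ L := mul_mem ht (L0L hm)
  have e0 : cj (t * m) L₀ = cj t L₀ := by rw [cj_mul, cj_eq_of_mem hm]
  set D := core L V
  set V1 := cj m V with hV1
  set V2 := cj t V1 with hV2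
  have e2 : cj (t * m) V = V2 := cj_mul _ _ _
  have ea1 : IsElementaryAbelian 2 V1 := ea_cj h.ea m
  have ea2 : IsElementaryAbelian 2 V2 := ea_cj ea1 t
  have V1L : V1 ≤ L := cj_le_of_le' (L0L hm) h.VL
  have D1 : D ≤ V1 := core_le (L0L hm)
  have D2 : D ≤ V2 := e2 ▸ core_le tm
  have b1 : V2 ⊓ L₀ ≤ cj m S :=
    (inf_le_inf_right _ (cj_mono (cj_le_of_le (h.nP hm) h.VP))).trans hB
  have n1 : V2 ⊓ L₀ ≤ normalizer (V1 : Set G) := b1.trans (cj_le_normalizer_cj m h.nS)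
  have cen : ∀ {b x : G}, b ∈ V2 → b ∉ D → x ∈ L → x * b * x⁻¹ * b⁻¹ ∈ D → x ∈ cj t L₀ :=
    fun hb hD hx e => e0 ▸ h.cent tm (e2 ▸ hb) hD hx e
  have cen' : ∀ {b x : G}, b ∈ V2 → b ∉ D → x ∈ L → x * b = b * x → x ∈ cj t L₀ :=
    fun hb hD hx e => cen hb hD hx (by rw [e]; simp)
  obtain ⟨b, hb, bQ, bD⟩ := h.exb tm
  rw [e2] at hb
  have bB : b ∈ V2 ⊓ L₀ := ⟨hb, h.SL (h.QS bQ)⟩
  suffices k : Qd (V2 ⊓ L₀) V1 ∨ Cb (V2 ⊓ L₀) V1 by
    refine ⟨cj m⁻¹ (V2 ⊓ L₀), by rwa [cj_le_iff, inv_inv], ?_⟩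
    rw [← cj_inv_cj m V]
    exact k.imp (·.cj _) (·.cj _)
  by_cases c : V1 ≤ cj t L₀
  · have c2 : V2 ≤ L₀ := (cj_mono c).trans (ctt L₀).le
    rw [inf_eq_left.mpr c2] at n1 b1 ⊢
    refine Or.inl (qd_of_swap ea2 n1 ((ctt V1).ge.trans (cj_le_normalizer_cj t n1)) (fun k => nw ?_)
      (le_of_eq ?_))
    · have k1 : b ∈ cj m (R ⊓ Q) := by
        rw [cj_inf, cj_eq_of_mem_normalizer (h.nQ (L0L hm))]
        refine ⟨cj_mono h.CR ?_, bQ⟩
        rw [cj_inf, cj_centralizer]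
        exact ⟨b1 hb, k hb⟩
      rw [cj_eq_of_mem_normalizer (h.nR hm)] at k1
      exact cen' hb bD (h.VL hw) (h.RV k1.1 w hw)
    · rw [← ri_cj t, cj_centralizer, ctt]
  obtain ⟨v, hv, nv⟩ := SetLike.not_le_iff_exists.mp c
  have eA : cj t (V2 ⊓ L₀) = V1 ⊓ cj t L₀ := by rw [cj_inf, ctt]
  have c1 : centralizer (V1 : Set G) ⊓ (V2 ⊓ L₀) ≤ D := fun x hx => by_contra fun n =>
    nv (cen' hx.2.1 n (V1L hv) (hx.1 v hv))
  have com : ∀ {x y : G}, x ∈ V1 → y ∈ V1 → x * y = y * x := fun hx hy =>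
    ea_le_centralizer ea1 hy _ hx
  have c2 : ⁅V1, V2 ⊓ L₀⁆ ≤ V1 ⊓ cj t L₀ := commutator_le.mpr fun x hx y hy => by
    have k1 : y * x * y⁻¹ ∈ V1 := (mem_normalizer_iff.mp (n1 hy) x).mp hx
    have k2 : ⁅x, y⁆ = x * (y * x * y⁻¹)⁻¹ := by rw [commutatorElement_def]; group
    have k3 : ⁅x, y⁆ ∈ V1 := k2 ▸ mul_mem hx (inv_mem k1)
    refine ⟨k3, ?_⟩
    by_cases d : y ∈ D
    · rw [commutatorElement_eq_one_iff_mul_comm.mpr (com hx (D1 d))]; exact one_mem _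
    · refine cen' hy.1 d (V1L k3) ?_
      have yy : y * y = 1 := by rw [← sq]; exact ea2.2 y hy.1
      have k4 : ⁅x, y⁆⁻¹ = ⁅x, y⁆ := inv_eq_of_mul_eq_one_right (by rw [← sq]; exact ea1.2 _ k3)
      calc ⁅x, y⁆ * y = ⁅x, y⁆⁻¹ * y := by rw [k4]
        _ = y * (x * y⁻¹ * x⁻¹ * y) := by rw [commutatorElement_def]; group
        _ = _ := by rw [commutatorElement_def, inv_eq_of_mul_eq_one_right yy]
  have c3 : ⁅V1 ⊓ cj t L₀, V2 ⊓ L₀⁆ ≤ V2 := (commutator_mono le_rfl inf_le_left).trans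
    (commutator_le_right_of_le_normalizer (eA ▸ cj_le_normalizer_cj t n1))
  have DB : D ≤ V2 ⊓ L₀ := le_inf D2 (D1.trans ((cj_le_of_le (h.nP hm) h.VP).trans h.PL))
  have eD : cj t D = D := cj_eq_of_mem_normalizer (n_core L V ht)
  have DA : D ≤ V1 ⊓ cj t L₀ := eA ▸ eD.ge.trans (cj_mono DB)
  refine Or.inr ⟨fun k => bD (c1 ⟨k bB, bB⟩), ea_mono ea2 inf_le_left, ?_, ?_⟩
  · exact commutator_eq_bot_iff'.mpr (inf_le_left.trans ((ea_le_centralizer ea2).trans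
      (centralizer_anti ((commutator_mono c2 le_rfl).trans c3))))
  have r1 : (centralizer (V1 : Set G)).relIndex (V2 ⊓ L₀) = D.relIndex (V1 ⊓ cj t L₀) := by
    rw [← inf_relIndex_right, le_antisymm c1 (le_inf (D1.trans (ea_le_centralizer ea1)) DB),
      ← ri_cj t, eA, eD]
  have r2 : (V1 ⊓ cj t L₀).relIndex V1 ≤ D.relIndex (V1 ⊓ cj t L₀) :=
    H9.relIndex_le_of_map (fun x => ⁅x, b⁆) (fun x hx => c2 (commutator_mem_commutator hx bB))
      fun x hx y hy k => by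
        have m1 := mul_mem (inv_mem hx) hy
        refine ⟨m1, cen hb bD (V1L m1) ?_⟩
        have k1 : b * x * b⁻¹ ∈ V1 := (mem_normalizer_iff.mp (n1 bB) x).mp hx
        convert k using 1
        calc x⁻¹ * y * b * (x⁻¹ * y)⁻¹ * b⁻¹ = x⁻¹ * y * b * (y⁻¹ * x) * b⁻¹ := by group
          _ = x⁻¹ * y * (b * x * b⁻¹) * (b * y⁻¹ * b⁻¹) := by rw [com (inv_mem hy) hx]; group
          _ = _ := by rw [com m1 k1, commutatorElement_def, commutatorElement_def]; group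
  rw [r1, sq]
  calc _ ≤ D.relIndex V1 := relIndex_le_of_le_left (le_inf D1 (D2.trans ((ea_le_centralizer ea2).trans
        (centralizer_anti inf_le_left)))) (ri_ne _ _)
    _ = _ := (relIndex_mul_relIndex _ _ _ DA inf_le_left).symm
    _ ≤ _ := Nat.mul_le_mul_left _ r2

end Ff

end Cfsg.QR
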